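import Cfsg.Agent.H417.EP.Eleven
import Cfsg.Agent.H419.EP.Soc

/-!
# `PSL₂(11)`, form with `HasSoc` (helper417)
-/

set_option autoImplicit false

namespace Cfsg.Agent.H417.EP.Eleven

open Cfsg.Agent.H284 Cfsg.Agent.H419.EP

theorem index_of_hasSoc {Q : Type*} [Group Q] [Finite Q] {A : Subgroup Q} {Γ : Subgroup (MulAut Q)} (h : EPT A Γ)
    (hs : HasSoc A (Matrix.ProjectiveSpecialLinearGroup (Fin 2) (ZMod 11))) : A.index ≤ 10000 := by
  obtain ⟨N, h1, h2, h3, ⟨e⟩⟩ := hs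
  exact index_le' h h1 h2 e h3

end Cfsg.Agent.H417.EP.Eleven
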